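import Mathlib
import Cfsg.Prelude.Def_LocalEven
import Cfsg.Prelude.Def_Solvable

set_option autoImplicit false

/-!
# The group `Qd(F)`: translations, complement, largest normal `p`-subgroup
-/

namespace Cfsg.Agent.H212.QdOver

open Matrix

variable {F : Type*} [Field F]

theorem cm {n : ℕ} (A B : SpecialLinearGroup (Fin n) F) : (A * B).1 = A.1 * B.1 := rfl

theorem c1 {n : ℕ} : (1 : SpecialLinearGroup (Fin n) F).1 = 1 := rfl

/-- Translations. -/
def tr (x y : F) : SpecialLinearGroup (Fin 3) F :=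
  ⟨!![1, 0, x; 0, 1, y; 0, 0, 1], by simp [det_fin_three]⟩

/-- Blocks. -/
def bl (A : SpecialLinearGroup (Fin 2) F) : SpecialLinearGroup (Fin 3) F :=
  ⟨!![A.1 0 0, A.1 0 1, 0; A.1 1 0, A.1 1 1, 0; 0, 0, 1], by
    have h := A.2
    rw [det_fin_two] at h
    rw [det_fin_three]
    simp
    linear_combination h⟩

theorem tr_coe (x y : F) : (tr x y).1 = !![1, 0, x; 0, 1, y; 0, 0, 1] := rfl

theorem bl_coe (A : SpecialLinearGroup (Fin 2) F) :
    (bl A).1 = !![A.1 0 0, A.1 0 1, 0; A.1 1 0, A.1 1 1, 0; 0, 0, 1] := rfl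

theorem tr_mul (x y x' y' : F) : tr x y * tr x' y' = tr (x + x') (y + y') := by
  apply Subtype.ext
  rw [cm, tr_coe, tr_coe, tr_coe]
  ext i j
  fin_cases i <;> fin_cases j <;> simp [Matrix.mul_apply, Fin.sum_univ_three] <;> ring

theorem tr_zero : tr (0 : F) 0 = 1 := by
  apply Subtype.ext
  rw [tr_coe]
  ext i j
  fin_cases i <;> fin_cases j <;> simp

theorem tr_inj {x y x' y' : F} (h : tr x y = tr x' y') : x = x' ∧ y = y' := by
  have h1 := congrArg Subtype.val h
  rw [tr_coe, tr_coe] at h1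
  exact ⟨by simpa using congrFun (congrFun h1 0) 2, by simpa using congrFun (congrFun h1 1) 2⟩

theorem bl_mul (A B : SpecialLinearGroup (Fin 2) F) : bl (A * B) = bl A * bl B := by
  apply Subtype.ext
  rw [cm, bl_coe, bl_coe, bl_coe, cm]
  ext i j
  fin_cases i <;> fin_cases j <;> simp [Matrix.mul_apply, Fin.sum_univ_three, Fin.sum_univ_two]

theorem bl_one : bl (1 : SpecialLinearGroup (Fin 2) F) = 1 := by
  apply Subtype.ext
  rw [bl_coe]
  ext i j
  fin_cases i <;> fin_cases j <;> simp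

theorem bl_inj {A B : SpecialLinearGroup (Fin 2) F} (h : bl A = bl B) : A = B := by
  have h1 := congrArg Subtype.val h
  rw [bl_coe, bl_coe] at h1
  apply Subtype.ext
  ext i j
  have h2 := congrFun (congrFun h1 (Fin.castSucc i)) (Fin.castSucc j)
  fin_cases i <;> fin_cases j <;> simpa using h2

theorem bl_mul_tr (A : SpecialLinearGroup (Fin 2) F) (x y : F) :
    bl A * tr x y = tr (A.1 0 0 * x + A.1 0 1 * y) (A.1 1 0 * x + A.1 1 1 * y) * bl A := by
  apply Subtype.ext
  rw [cm, cm, tr_coe, tr_coe, bl_coe]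
  ext i j
  fin_cases i <;> fin_cases j <;> simp [Matrix.mul_apply, Fin.sum_univ_three]

theorem tr_mem (x y : F) : tr x y ∈ Cfsg.qdOver F := Subgroup.subset_closure ⟨rfl, rfl, rfl⟩

theorem bl_mem (A : SpecialLinearGroup (Fin 2) F) : bl A ∈ Cfsg.qdOver F :=
  Subgroup.subset_closure ⟨rfl, rfl, rfl⟩

theorem exists_of_row (M : SpecialLinearGroup (Fin 3) F) (h0 : M.1 2 0 = 0) (h1 : M.1 2 1 = 0)
    (h2 : M.1 2 2 = 1) : ∃ (x y : F) (A : SpecialLinearGroup (Fin 2) F), M = tr x y * bl A := by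
  have hdet := M.2
  rw [det_fin_three, h0, h1, h2] at hdet
  refine ⟨M.1 0 2, M.1 1 2, ⟨!![M.1 0 0, M.1 0 1; M.1 1 0, M.1 1 1], ?_⟩, ?_⟩
  · rw [det_fin_two_of]
    linear_combination hdet
  · apply Subtype.ext
    change M.1 = !![1, 0, M.1 0 2; 0, 1, M.1 1 2; 0, 0, 1] *
      !![M.1 0 0, M.1 0 1, 0; M.1 1 0, M.1 1 1, 0; 0, 0, 1]
    ext i j
    fin_cases i <;> fin_cases j <;> simp [Matrix.mul_apply, Fin.sum_univ_three, h0, h1, h2]

/-- Every element of `Qd(F)` is a translation times a block. -/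
theorem exists_of_mem {M : SpecialLinearGroup (Fin 3) F} (hM : M ∈ Cfsg.qdOver F) :
    ∃ (x y : F) (A : SpecialLinearGroup (Fin 2) F), M = tr x y * bl A := by
  unfold Cfsg.qdOver at hM
  induction hM using Subgroup.closure_induction with
  | mem M hM => exact exists_of_row M hM.1 hM.2.1 hM.2.2
  | one => exact ⟨0, 0, 1, by rw [tr_zero, bl_one, one_mul]⟩
  | mul M N _ _ hM hN =>
    obtain ⟨x, y, A, rfl⟩ := hM
    obtain ⟨x', y', B, rfl⟩ := hN
    refine ⟨x + (A.1 0 0 * x' + A.1 0 1 * y'), y + (A.1 1 0 * x' + A.1 1 1 * y'), A * B, ?_⟩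
    rw [bl_mul, ← tr_mul, mul_assoc (tr x y), ← mul_assoc (bl A), bl_mul_tr]
    group
  | inv M _ hM =>
    obtain ⟨x, y, A, rfl⟩ := hM
    have h1 : (tr x y)⁻¹ = tr (-x) (-y) := by
      rw [inv_eq_iff_mul_eq_one, tr_mul, ← tr_zero]
      congr 1 <;> ring
    have h2 : (bl A)⁻¹ = bl A⁻¹ := by
      rw [inv_eq_iff_mul_eq_one, ← bl_mul, mul_inv_cancel, bl_one]
    exact ⟨_, _, A⁻¹, by rw [_root_.mul_inv_rev, h1, h2, bl_mul_tr]⟩

theorem last_row {M : SpecialLinearGroup (Fin 3) F} (hM : M ∈ Cfsg.qdOver F) :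
    M.1 2 0 = 0 ∧ M.1 2 1 = 0 ∧ M.1 2 2 = 1 := by
  obtain ⟨x, y, A, rfl⟩ := exists_of_mem hM
  rw [cm, tr_coe, bl_coe]
  simp [Matrix.mul_apply, Fin.sum_univ_three]

/-- The upper left block, as a homomorphism. -/
def blockHom (F : Type*) [Field F] : ↥(Cfsg.qdOver F) →* SpecialLinearGroup (Fin 2) F where
  toFun M := ⟨!![M.1.1 0 0, M.1.1 0 1; M.1.1 1 0, M.1.1 1 1], by
    obtain ⟨h0, h1, h2⟩ := last_row M.2
    have hdet := M.1.2
    rw [det_fin_three, h0, h1, h2] at hdet
    rw [det_fin_two_of]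
    linear_combination hdet⟩
  map_one' := by
    apply Subtype.ext
    ext i j
    fin_cases i <;> fin_cases j <;> simp
  map_mul' M N := by
    obtain ⟨h0, h1, h2⟩ := last_row M.2
    obtain ⟨h3, h4, h5⟩ := last_row N.2
    apply Subtype.ext
    change !![(M.1 * N.1).1 0 0, (M.1 * N.1).1 0 1; (M.1 * N.1).1 1 0, (M.1 * N.1).1 1 1] =
      !![M.1.1 0 0, M.1.1 0 1; M.1.1 1 0, M.1.1 1 1] * !![N.1.1 0 0, N.1.1 0 1; N.1.1 1 0, N.1.1 1 1]
    rw [cm]
    ext i j
    fin_cases i <;> fin_cases j <;>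
      simp [Matrix.mul_apply, Fin.sum_univ_three, Fin.sum_univ_two, h3, h4]

theorem blockHom_coe (M : ↥(Cfsg.qdOver F)) :
    (blockHom F M).1 = !![M.1.1 0 0, M.1.1 0 1; M.1.1 1 0, M.1.1 1 1] := rfl

/-- The blocks inside `Qd(F)`. -/
def blHom (F : Type*) [Field F] : SpecialLinearGroup (Fin 2) F →* ↥(Cfsg.qdOver F) where
  toFun A := ⟨bl A, bl_mem A⟩
  map_one' := Subtype.ext bl_one
  map_mul' A B := Subtype.ext (bl_mul A B)

theorem blockHom_blHom (A : SpecialLinearGroup (Fin 2) F) : blockHom F (blHom F A) = A := by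
  apply Subtype.ext
  rw [blockHom_coe]
  change !![(bl A).1 0 0, (bl A).1 0 1; (bl A).1 1 0, (bl A).1 1 1] = A.1
  rw [bl_coe]
  ext i j
  fin_cases i <;> fin_cases j <;> simp

theorem blHom_injective : Function.Injective (blHom F) :=
  Function.LeftInverse.injective blockHom_blHom

/-- The translation subgroup. -/
def trans (F : Type*) [Field F] : Subgroup ↥(Cfsg.qdOver F) := (blockHom F).ker

theorem mem_trans {M : ↥(Cfsg.qdOver F)} : M ∈ trans F ↔
    M.1.1 0 0 = 1 ∧ M.1.1 0 1 = 0 ∧ M.1.1 1 0 = 0 ∧ M.1.1 1 1 = 1 := by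
  rw [trans, MonoidHom.mem_ker]
  constructor
  · intro h
    have h1 := congrArg Subtype.val h
    rw [blockHom_coe] at h1
    have e : ∀ i j, _ := fun i j => congrFun (congrFun h1 i) j
    have e00 := e 0 0
    have e01 := e 0 1
    have e10 := e 1 0
    have e11 := e 1 1
    simp at e00 e01 e10 e11
    exact ⟨e00, e01, e10, e11⟩
  · rintro ⟨h1, h2, h3, h4⟩
    apply Subtype.ext
    rw [blockHom_coe, h1, h2, h3, h4]
    ext i j
    fin_cases i <;> fin_cases j <;> simp

theorem exists_tr {M : ↥(Cfsg.qdOver F)} (hM : M ∈ trans F) :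
    ∃ x y : F, M = ⟨tr x y, tr_mem x y⟩ := by
  obtain ⟨h1, h2, h3, h4⟩ := mem_trans.1 hM
  obtain ⟨h5, h6, h7⟩ := last_row M.2
  refine ⟨M.1.1 0 2, M.1.1 1 2, ?_⟩
  apply Subtype.ext
  apply Subtype.ext
  change M.1.1 = (tr _ _).1
  rw [tr_coe]
  ext i j
  fin_cases i <;> fin_cases j <;> simp [h1, h2, h3, h4, h5, h6, h7]

theorem tr_mem_trans (x y : F) : (⟨tr x y, tr_mem x y⟩ : ↥(Cfsg.qdOver F)) ∈ trans F := by
  rw [mem_trans]
  exact ⟨rfl, rfl, rfl, rfl⟩

instance trans_normal : (trans F).Normal := by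
  unfold trans
  infer_instance

theorem isPGroup_trans {p : ℕ} [Fact p.Prime] [CharP F p] : IsPGroup p (trans F) := by
  rintro ⟨M, hM⟩
  refine ⟨1, ?_⟩
  obtain ⟨x, y, rfl⟩ := exists_tr hM
  have h : ∀ n : ℕ, (tr x y) ^ n = tr (n * x) (n * y) := by
    intro n
    induction n with
    | zero => rw [pow_zero, Nat.cast_zero, zero_mul, zero_mul, tr_zero]
    | succ n ih =>
      rw [pow_succ, ih, tr_mul]
      push_cast
      congr 1 <;> ring
  apply Subtype.ext
  apply Subtype.ext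
  change (tr x y) ^ (p ^ 1) = 1
  rw [pow_one, h, CharP.cast_eq_zero, zero_mul, zero_mul, tr_zero]

/-- A normal `p`-subgroup of `SL₂(F)` in characteristic `p` is trivial. -/
theorem eq_bot_of_normal_pGroup [Finite F] {p : ℕ} [Fact p.Prime] [CharP F p]
    (N : Subgroup (SpecialLinearGroup (Fin 2) F)) (hN : N.Normal) (hp : IsPGroup p N) : N = ⊥ := by
  classical
  have : Fintype F := Fintype.ofFinite F
  let act : MulAction N (Fin 2 → F) :=
    { smul := fun A v => A.1.1.mulVec v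
      one_smul := fun v => one_mulVec v
      mul_smul := fun A B v => by
        change (A.1 * B.1).1.mulVec v = A.1.1.mulVec (B.1.1.mulVec v)
        rw [cm, mulVec_mulVec] }
  have hsm : ∀ (A : N) (v : Fin 2 → F), A • v = A.1.1.mulVec v := fun A v => rfl
  have hcard : p ∣ Nat.card (Fin 2 → F) := by
    rw [Nat.card_fun, Nat.card_fin]
    obtain ⟨n, hn, h⟩ := FiniteField.card F p
    rw [Nat.card_eq_fintype_card, h]
    exact dvd_pow (dvd_pow_self p n.ne_zero) (by norm_num)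
  have h0 : (0 : Fin 2 → F) ∈ MulAction.fixedPoints N (Fin 2 → F) := fun A => by
    rw [hsm, mulVec_zero]
  obtain ⟨v, hv, hv0⟩ := hp.exists_fixed_point_of_prime_dvd_card_of_fixed_point (Fin 2 → F) hcard h0
  rw [eq_bot_iff]
  intro A hA
  rw [Subgroup.mem_bot]
  -- `A` fixes the images of `v`
  have key : ∀ g : SpecialLinearGroup (Fin 2) F, A.1.mulVec (g.1.mulVec v) = g.1.mulVec v := by
    intro g
    have h1 := hN.conj_mem A hA g⁻¹
    rw [inv_inv] at h1
    have h2 := hv ⟨_, h1⟩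
    rw [hsm] at h2
    have h3 : g.1.mulVec ((g⁻¹ * A * g).1.mulVec v) = g.1.mulVec v := by rw [h2]
    rw [mulVec_mulVec, ← cm] at h3
    have h4 : g * (g⁻¹ * A * g) = A * g := by group
    rw [h4, cm, ← mulVec_mulVec] at h3
    exact h3
  have k1 := key 1
  rw [c1, one_mulVec] at k1
  have k2 := key ⟨!![1, 1; 0, 1], by simp [det_fin_two_of]⟩
  have k3 := key ⟨!![1, 0; 1, 1], by simp [det_fin_two_of]⟩
  have e1 := congrFun k1 0
  have e2 := congrFun k1 1
  have e3 := congrFun k2 0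
  have e4 := congrFun k2 1
  have e5 := congrFun k3 0
  have e6 := congrFun k3 1
  simp [mulVec, dotProduct, Fin.sum_univ_two] at e1 e2 e3 e4 e5 e6
  have hab : v 0 ≠ 0 ∨ v 1 ≠ 0 := by
    by_contra hcon
    push Not at hcon
    apply hv0
    ext i
    fin_cases i
    · exact hcon.1.symm
    · exact hcon.2.symm
  apply Subtype.ext
  rcases hab with ha | hb
  · have f1 : A.1 0 1 = 0 := by
      have : A.1 0 1 * v 0 = 0 := by linear_combination e5 - e1
      exact (mul_eq_zero.1 this).resolve_right ha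
    have f2 : A.1 1 1 = 1 := by
      have : (A.1 1 1 - 1) * v 0 = 0 := by linear_combination e6 - e2
      exact sub_eq_zero.1 ((mul_eq_zero.1 this).resolve_right ha)
    have f3 : A.1 0 0 = 1 := by
      have : (A.1 0 0 - 1) * v 0 = 0 := by linear_combination e1 - f1 * v 1
      exact sub_eq_zero.1 ((mul_eq_zero.1 this).resolve_right ha)
    have f4 : A.1 1 0 = 0 := by
      have : A.1 1 0 * v 0 = 0 := by linear_combination e2 - f2 * v 1
      exact (mul_eq_zero.1 this).resolve_right ha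
    ext i j
    fin_cases i <;> fin_cases j <;> simp [f1, f2, f3, f4]
  · have f1 : A.1 0 0 = 1 := by
      have : (A.1 0 0 - 1) * v 1 = 0 := by linear_combination e3 - e1
      exact sub_eq_zero.1 ((mul_eq_zero.1 this).resolve_right hb)
    have f2 : A.1 1 0 = 0 := by
      have : A.1 1 0 * v 1 = 0 := by linear_combination e4 - e2
      exact (mul_eq_zero.1 this).resolve_right hb
    have f3 : A.1 0 1 = 0 := by
      have : A.1 0 1 * v 1 = 0 := by linear_combination e1 - f1 * v 0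
      exact (mul_eq_zero.1 this).resolve_right hb
    have f4 : A.1 1 1 = 1 := by
      have : (A.1 1 1 - 1) * v 1 = 0 := by linear_combination e2 - f2 * v 0
      exact sub_eq_zero.1 ((mul_eq_zero.1 this).resolve_right hb)
    ext i j
    fin_cases i <;> fin_cases j <;> simp [f1, f2, f3, f4]

/-- The largest normal `p`-subgroup of `Qd(F)` is the translation group. -/
theorem pCore_eq [Finite F] {p : ℕ} [Fact p.Prime] [CharP F p] :
    Cfsg.pCore p ↥(Cfsg.qdOver F) = trans F := by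
  apply le_antisymm
  · unfold Cfsg.pCore
    rw [sSup_le_iff]
    rintro N ⟨hN, hp⟩
    have hs : Function.Surjective (blockHom F) := fun A => ⟨blHom F A, blockHom_blHom A⟩
    have h1 : N.map (blockHom F) = ⊥ :=
      eq_bot_of_normal_pGroup _ (hN.map _ hs) (hp.map _)
    rw [trans]
    exact (Subgroup.map_eq_bot_iff N).1 h1
  · exact le_sSup ⟨trans_normal, isPGroup_trans⟩

/-- The complement. -/
def compl (F : Type*) [Field F] : Subgroup ↥(Cfsg.qdOver F) := (blHom F).range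

theorem mem_compl {M : ↥(Cfsg.qdOver F)} : M ∈ compl F ↔ M.1.1 0 2 = 0 ∧ M.1.1 1 2 = 0 := by
  constructor
  · rintro ⟨A, rfl⟩
    exact ⟨rfl, rfl⟩
  · rintro ⟨h1, h2⟩
    obtain ⟨h3, h4, h5⟩ := last_row M.2
    refine ⟨blockHom F M, ?_⟩
    apply Subtype.ext
    apply Subtype.ext
    change (bl _).1 = M.1.1
    rw [bl_coe, blockHom_coe]
    ext i j
    fin_cases i <;> fin_cases j <;> simp [h1, h2, h3, h4, h5]

theorem compl_inf_trans : compl F ⊓ trans F = ⊥ := by
  rw [eq_bot_iff]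
  rintro _ ⟨⟨A, rfl⟩, hM⟩
  have h1 : blockHom F (blHom F A) = 1 := hM
  rw [blockHom_blHom] at h1
  rw [h1, map_one]
  exact Subgroup.one_mem _

theorem compl_sup_trans : compl F ⊔ trans F = ⊤ := by
  rw [eq_top_iff]
  rintro ⟨M, hM⟩ -
  obtain ⟨x, y, A, rfl⟩ := exists_of_mem hM
  have h1 : (⟨tr x y * bl A, hM⟩ : ↥(Cfsg.qdOver F)) = ⟨tr x y, tr_mem x y⟩ * blHom F A := rfl
  rw [h1]
  exact mul_mem ((le_sup_right : trans F ≤ _) (tr_mem_trans x y))
    ((le_sup_left : compl F ≤ _) ⟨A, rfl⟩)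

/-- Coordinates of a translation. -/
noncomputable def coords (F : Type*) [Field F] : Additive (trans F) ≃+ (Fin 2 → F) where
  toFun M := ![M.toMul.1.1.1 0 2, M.toMul.1.1.1 1 2]
  invFun v := Additive.ofMul ⟨⟨tr (v 0) (v 1), tr_mem _ _⟩, tr_mem_trans _ _⟩
  left_inv := by
    intro M
    obtain ⟨x, y, h⟩ := exists_tr M.toMul.2
    have h2 : M = Additive.ofMul ⟨⟨tr x y, tr_mem x y⟩, tr_mem_trans x y⟩ := by
      apply Additive.toMul.injective
      exact Subtype.ext h
    rw [h2]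
    rfl
  right_inv := by
    intro v
    ext i
    fin_cases i <;> rfl
  map_add' := by
    intro M N
    obtain ⟨x, y, h⟩ := exists_tr M.toMul.2
    have h2 : M = Additive.ofMul ⟨⟨tr x y, tr_mem x y⟩, tr_mem_trans x y⟩ := by
      apply Additive.toMul.injective
      exact Subtype.ext h
    obtain ⟨x', y', h'⟩ := exists_tr N.toMul.2
    have h2' : N = Additive.ofMul ⟨⟨tr x' y', tr_mem x' y'⟩, tr_mem_trans x' y'⟩ := by
      apply Additive.toMul.injective
      exact Subtype.ext h'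
    rw [h2, h2']
    change ![(tr x y * tr x' y').1 0 2, (tr x y * tr x' y').1 1 2] =
      ![(tr x y).1 0 2, (tr x y).1 1 2] + ![(tr x' y').1 0 2, (tr x' y').1 1 2]
    rw [tr_mul]
    ext i
    fin_cases i <;> simp [tr_coe]

theorem coords_tr (x y : F) :
    coords F (Additive.ofMul ⟨⟨tr x y, tr_mem x y⟩, tr_mem_trans x y⟩) = ![x, y] := rfl

/-- The isomorphism of the complement with `SL₂(F)`. -/
noncomputable def complEquiv (F : Type*) [Field F] : ↥(compl F) ≃* SpecialLinearGroup (Fin 2) F :=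
  (MonoidHom.ofInjective blHom_injective).symm

theorem natural : Cfsg.IsNaturalSL2Module F (trans F) (compl F) := by
  refine ⟨?_, (blockHom F).comp (compl F).subtype, coords F, ?_, ?_, ?_⟩
  · rw [Subgroup.normalizer_eq_top]
    exact le_top
  · intro A
    exact ⟨⟨blHom F A, ⟨A, rfl⟩⟩, blockHom_blHom A⟩
  · ext ⟨M, hM⟩
    obtain ⟨A, rfl⟩ := hM
    rw [MonoidHom.mem_ker, Subgroup.mem_subgroupOf, Subgroup.mem_centralizer_iff]
    change blockHom F (blHom F A) = 1 ↔ _
    rw [blockHom_blHom]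
    constructor
    · rintro rfl h -
      simp
    · intro h
      have h1 := congrArg Subtype.val (h ⟨tr 1 0, tr_mem 1 0⟩ (tr_mem_trans 1 0))
      have h2 := congrArg Subtype.val (h ⟨tr 0 1, tr_mem 0 1⟩ (tr_mem_trans 0 1))
      change tr 1 0 * bl A = bl A * tr 1 0 at h1
      change tr 0 1 * bl A = bl A * tr 0 1 at h2
      rw [bl_mul_tr] at h1 h2
      have h3 := tr_inj (mul_right_cancel h1)
      have h4 := tr_inj (mul_right_cancel h2)
      simp at h3 h4
      apply Subtype.ext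
      ext i j
      fin_cases i <;> fin_cases j
      · simp [← h3.1]
      · simp [← h4.1]
      · simp [← h3.2]
      · simp [← h4.2]
  · rintro ⟨_, A, rfl⟩ ⟨N, hN⟩
    obtain ⟨x, y, rfl⟩ := exists_tr hN
    refine ⟨⟨⟨tr (A.1 0 0 * x + A.1 0 1 * y) (A.1 1 0 * x + A.1 1 1 * y), tr_mem _ _⟩,
      tr_mem_trans _ _⟩, ?_, ?_⟩
    · apply Subtype.ext
      change tr _ _ = bl A * tr x y * (bl A)⁻¹
      rw [bl_mul_tr, mul_inv_cancel_right]
    · rw [coords_tr, coords_tr]
      change _ = (blockHom F (blHom F A)).1.mulVec _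
      rw [blockHom_blHom]
      ext i
      fin_cases i <;> simp [mulVec, dotProduct, Fin.sum_univ_two]

end Cfsg.Agent.H212.QdOver
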