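import Mathlib
import Cfsg.Agent.Lib.Involves
import Cfsg.Agent.Lib.FrattiniBasic
import Cfsg.Agent.PLocal.S4FreeNoS3
import Cfsg.Agent.S0029

set_option autoImplicit false

/-!
# `S₄` is involved in `G` iff `S₃` is involved in `N(T)/C(T)` for a `2`-subgroup `T`
-/

namespace Cfsg.Agent.H212.SFour

open Cfsg.Agent.Lib.Involves

universe u

/-! ### The map from the symmetric group of degree four onto the symmetric group of degree three -/

/-- The index of the partition into two pairs with the given pair. -/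
def d : Fin 4 → Fin 4 → Fin 3 :=
  ![![0, 2, 1, 0], ![2, 0, 0, 1], ![1, 0, 0, 2], ![0, 1, 2, 0]]

/-- The action on the three partitions into two pairs. -/
def qfun (σ : Equiv.Perm (Fin 4)) (i : Fin 3) : Fin 3 := d (σ 3) (σ i.castSucc)

theorem qfun_inv : ∀ (σ : Equiv.Perm (Fin 4)) (i : Fin 3), qfun σ⁻¹ (qfun σ i) = i := by
  decide

/-- The action on partitions, as a permutation. -/
def qperm (σ : Equiv.Perm (Fin 4)) : Equiv.Perm (Fin 3) where
  toFun := qfun σ
  invFun := qfun σ⁻¹
  left_inv := qfun_inv σ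
  right_inv := fun i => by
    have := qfun_inv σ⁻¹ i
    rwa [inv_inv] at this

theorem d_eq : ∀ (σ : Equiv.Perm (Fin 4)) (i j : Fin 4), i ≠ j →
    d (σ i) (σ j) = qfun σ (d i j) := by
  decide +kernel

theorem ne_aux (τ : Equiv.Perm (Fin 4)) (i : Fin 3) : τ 3 ≠ τ i.castSucc := by
  intro h
  have := τ.injective h
  revert this
  fin_cases i <;> decide

/-- The surjection of the symmetric group of degree four onto that of degree three. -/
def q : Equiv.Perm (Fin 4) →* Equiv.Perm (Fin 3) where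
  toFun := qperm
  map_one' := by
    ext i
    revert i
    decide
  map_mul' := by
    intro σ τ
    apply Equiv.ext
    intro i
    change d (σ (τ 3)) (σ (τ i.castSucc)) = qfun σ (d (τ 3) (τ i.castSucc))
    exact d_eq σ _ _ (ne_aux τ i)

theorem q_surjective : Function.Surjective q := by
  intro τ
  revert τ
  decide +kernel

theorem q_ker_sq : ∀ σ : Equiv.Perm (Fin 4), q σ = 1 → σ ^ 2 = 1 := by
  decide +kernel

theorem q_of_centralize : ∀ σ : Equiv.Perm (Fin 4), (∀ τ : Equiv.Perm (Fin 4), q τ = 1 → τ * σ = σ * τ) →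
    q σ = 1 := by
  decide +kernel

theorem perm3_aux : ∀ σ : Equiv.Perm (Fin 3), σ ^ 2 = 1 → σ ≠ 1 →
    ∃ τ : Equiv.Perm (Fin 3), (σ * (τ * σ * τ⁻¹)) ^ 3 = 1 ∧ σ * (τ * σ * τ⁻¹) ≠ 1 := by
  decide +kernel

theorem perm3_pow_six : ∀ σ : Equiv.Perm (Fin 3), σ ^ 6 = 1 := by decide +kernel

/-- A normal subgroup of the symmetric group of degree three consisting of `2`-elements is trivial. -/
theorem normal_eq_bot (N : Subgroup (Equiv.Perm (Fin 3))) (hN : N.Normal)
    (h2 : ∀ σ ∈ N, ∃ k : ℕ, σ ^ 2 ^ k = 1) : N = ⊥ := by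
  have hsq : ∀ σ ∈ N, σ ^ 2 = 1 := by
    intro σ hσ
    obtain ⟨k, hk⟩ := h2 σ hσ
    have h1 : orderOf σ ∣ 2 ^ k := orderOf_dvd_of_pow_eq_one hk
    have h3 : orderOf σ ∣ 6 := orderOf_dvd_of_pow_eq_one (perm3_pow_six σ)
    obtain ⟨j, hj, hj'⟩ := (Nat.dvd_prime_pow Nat.prime_two).1 h1
    have h4 : j ≤ 1 := by
      by_contra hcon
      have h5 : 2 ^ 2 ∣ 6 := (pow_dvd_pow 2 (by omega)).trans (hj' ▸ h3)
      omega
    apply orderOf_dvd_iff_pow_eq_one.1
    rw [hj']
    calc 2 ^ j ∣ 2 ^ 1 := pow_dvd_pow 2 h4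
      _ = 2 := by norm_num
  rw [eq_bot_iff]
  intro σ hσ
  rw [Subgroup.mem_bot]
  by_contra h1
  obtain ⟨τ, h3, h4⟩ := perm3_aux σ (hsq σ hσ) h1
  have h5 : σ * (τ * σ * τ⁻¹) ∈ N := N.mul_mem hσ (hN.conj_mem σ hσ τ)
  have h6 := hsq _ h5
  apply h4
  rw [pow_succ, h6, one_mul] at h3
  exact h3

/-! ### The Frattini quotient -/

/-- Automorphisms act on the quotient by a characteristic subgroup. -/
def quotAut {A : Type*} [Group A] (K : Subgroup A) [hK : K.Characteristic] : MulAut A →* MulAut (A ⧸ K) where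
  toFun f := QuotientGroup.congr K K f (Subgroup.characteristic_iff_map_eq.1 hK f)
  map_one' := by
    ext x
    induction x using QuotientGroup.induction_on
    rfl
  map_mul' f g := by
    ext x
    induction x using QuotientGroup.induction_on
    rfl

theorem quotAut_mk {A : Type*} [Group A] (K : Subgroup A) [hK : K.Characteristic] (f : MulAut A) (a : A) :
    quotAut K f (QuotientGroup.mk a : A ⧸ K) = QuotientGroup.mk (f a) := rfl

/-- If `N` has no section `S₄` and `A` is a normal `2`-subgroup then there is no section `S₃` of `N/C(A)`. -/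
theorem no_section {N : Type u} [Group N] [Finite N]
    (h4 : ¬ ∃ (K R : Subgroup N) (hR : (R.subgroupOf K).Normal),
      Nonempty ((K ⧸ R.subgroupOf K) ≃* Equiv.Perm (Fin 4)))
    (A : Subgroup N) (hAn : A.Normal) (hA : IsPGroup 2 A) (D : Subgroup N) (ψ : D →* Equiv.Perm (Fin 3))
    (hψ : Function.Surjective ψ)
    (hker : ∀ x : D, (x : N) ∈ Subgroup.centralizer (A : Set N) → ψ x = 1) : False := by
  classical
  have : Fact (Nat.Prime 2) := ⟨Nat.prime_two⟩
  have hch : (frattini A).Characteristic := inferInstance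
  have hcomm : ∀ a b : A ⧸ frattini A, a * b = b * a := by
    intro a b
    induction a using QuotientGroup.induction_on with
    | H a =>
    induction b using QuotientGroup.induction_on with
    | H b =>
    rw [← QuotientGroup.mk_mul, ← QuotientGroup.mk_mul, QuotientGroup.eq]
    have h1 := Lib.FrattiniBasic.commutator_le_frattini hA
      (Subgroup.commutator_mem_commutator (Subgroup.mem_top b⁻¹) (Subgroup.mem_top a⁻¹))
    convert h1 using 1
    rw [commutatorElement_def]
    group
  let instV : CommGroup (A ⧸ frattini A) := { (inferInstance : Group (A ⧸ frattini A)) with mul_comm := hcomm }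
  have hexp : ∀ v : A ⧸ frattini A, v * v = 1 := by
    intro v
    induction v using QuotientGroup.induction_on with
    | H a =>
    have h1 := Lib.FrattiniBasic.pow_mem_frattini hA a
    rw [pow_two] at h1
    exact (QuotientGroup.eq_one_iff _).2 h1
  let φ : N →* MulAut (A ⧸ frattini A) := (quotAut (frattini A)).comp (MulAut.conjNormal (H := A))
  have hno : Cfsg.Agent.PLocal.SFourOffender.NoS3 φ :=
    Cfsg.Agent.PLocal.S4FreeNoS3.noS3_of_section h4 hAn hexp (QuotientGroup.mk' (frattini A))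
      (QuotientGroup.mk'_surjective _) φ (fun g a => rfl)
  apply hno
  refine ⟨D, ψ, hψ, ?_⟩
  -- the elements acting trivially on the Frattini quotient
  have hodd : ∀ x : N, φ x = 1 → Odd (orderOf x) → x ∈ Subgroup.centralizer (A : Set N) := by
    intro x hx hox
    have h1 : Subgroup.zpowers x ≤ Subgroup.centralizer (A : Set N) := by
      refine S0029.result (Subgroup.zpowers x) A ?_ ?_ ?_
      · rw [Subgroup.normalizer_eq_top]; exact le_top
      · rw [Nat.card_zpowers]
        have h2 : IsPGroup 2 (frattini A) := hA.to_subgroup _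
        obtain ⟨n, hn⟩ := IsPGroup.iff_card.1 h2
        rw [hn]
        exact Nat.Coprime.pow_right n (Nat.coprime_two_right.2 hox)
      · rintro a ⟨n, rfl⟩ k hk
        have h2 : φ (x ^ n) = 1 := by rw [map_zpow, hx, one_zpow]
        have h3 := DFunLike.congr_fun h2 (QuotientGroup.mk ⟨k, hk⟩)
        have h4 : (QuotientGroup.mk (MulAut.conjNormal (x ^ n) ⟨k, hk⟩ : A) : A ⧸ frattini A) =
          QuotientGroup.mk ⟨k, hk⟩ := h3
        rw [eq_comm, QuotientGroup.eq] at h4
        have h5 := hcomm (QuotientGroup.mk ⟨k, hk⟩⁻¹) (QuotientGroup.mk (MulAut.conjNormal (x ^ n) ⟨k, hk⟩ : A))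
        rw [← QuotientGroup.mk_mul, ← QuotientGroup.mk_mul, (QuotientGroup.eq_one_iff _).2 h4, eq_comm,
          QuotientGroup.eq_one_iff] at h5
        refine ⟨_, h5, ?_⟩
        change (x ^ n * k * (x ^ n)⁻¹) * k⁻¹ = _
        rfl
    exact h1 (Subgroup.mem_zpowers x)
  set E : Subgroup D := (φ.comp D.subtype).ker with hE
  have hEn : (E.map ψ).Normal := (inferInstance : E.Normal).map ψ hψ
  have hbot : E.map ψ = ⊥ := by
    refine normal_eq_bot _ hEn ?_
    rintro _ ⟨e, he, rfl⟩
    have hpos : 0 < orderOf (e : N) := orderOf_pos _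
    obtain ⟨k, m, hm, hkm⟩ := Nat.exists_eq_pow_mul_and_not_dvd hpos.ne' 2 (by norm_num)
    refine ⟨k, ?_⟩
    rw [← map_pow]
    apply hker
    rw [Subgroup.coe_pow]
    apply hodd
    · have h1 : φ (e : N) = 1 := he
      rw [map_pow, h1, one_pow]
    · rw [orderOf_pow_of_dvd (by positivity) ⟨m, hkm⟩, hkm, Nat.mul_div_cancel_left _ (by positivity)]
      exact Nat.not_even_iff_odd.1 (fun h => hm h.two_dvd)
  intro x hx
  have h1 : ψ x ∈ E.map ψ := ⟨x, hx, rfl⟩
  rw [hbot, Subgroup.mem_bot] at h1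
  exact h1

/-- `S₃` involved in `N(T)/C(T)` gives `S₄` involved in `G`. -/
theorem sfour_of_sthree {G : Type u} [Group G] [Finite G] (T : Subgroup G) (hT : IsPGroup 2 T)
    (h : Involves (↥(Subgroup.normalizer (T : Set G)) ⧸
      (Subgroup.centralizer (T : Set G)).subgroupOf (Subgroup.normalizer (T : Set G)))
      (Equiv.Perm (Fin 3))) : Involves G (Equiv.Perm (Fin 4)) := by
  classical
  by_contra h4
  obtain ⟨D₁, ψ₁, hψ₁⟩ := h
  set N := Subgroup.normalizer (T : Set G) with hN
  set C := (Subgroup.centralizer (T : Set G)).subgroupOf N with hC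
  let D : Subgroup N := D₁.comap (QuotientGroup.mk' C)
  let ρ : D →* D₁ := (QuotientGroup.mk' C).subgroupComap D₁
  have hρ : Function.Surjective ρ := by
    rintro ⟨y, hy⟩
    obtain ⟨x, rfl⟩ := QuotientGroup.mk'_surjective C y
    exact ⟨⟨x, hy⟩, rfl⟩
  refine no_section (N := N) ?_ (T.subgroupOf N) ?_ ?_ D (ψ₁.comp ρ) (hψ₁.comp hρ) ?_
  · intro h5
    exact h4 (of_subgroup (involves_iff.2 h5))
  · infer_instance
  · exact hT.comap_of_injective N.subtype N.subtype_injective
  · intro x hx
    have h1 : ρ x = 1 := by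
      apply Subtype.ext
      change (QuotientGroup.mk' C) (x : N) = 1
      refine (QuotientGroup.eq_one_iff _).2 ?_
      rw [hC, Subgroup.mem_subgroupOf, Subgroup.mem_centralizer_iff]
      intro t ht
      have htN : t ∈ N := Subgroup.le_normalizer ht
      have h2 := Subgroup.mem_centralizer_iff.1 hx ⟨t, htN⟩ ht
      exact congrArg Subtype.val h2
    rw [MonoidHom.comp_apply, h1, map_one]

/-- `S₄` involved in `G` gives a `2`-subgroup `T` with `S₃` involved in `N(T)/C(T)`. -/
theorem sthree_of_sfour {G : Type u} [Group G] [Finite G] (h : Involves G (Equiv.Perm (Fin 4))) :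
    ∃ T : Subgroup G, IsPGroup 2 T ∧ Involves (↥(Subgroup.normalizer (T : Set G)) ⧸
      (Subgroup.centralizer (T : Set G)).subgroupOf (Subgroup.normalizer (T : Set G)))
      (Equiv.Perm (Fin 3)) := by
  classical
  have : Fact (Nat.Prime 2) := ⟨Nat.prime_two⟩
  obtain ⟨H, f, hf⟩ := h
  let M : Subgroup H := q.ker.comap f
  have hMn : M.Normal := (inferInstance : q.ker.Normal).comap f
  obtain ⟨S⟩ : Nonempty (Sylow 2 M) := inferInstance
  set S0 : Subgroup H := (S : Subgroup M).map M.subtype with hS0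
  have hSp : IsPGroup 2 S0 := S.isPGroup'.map _
  have hST : S0.map f = q.ker := by
    let g : M →* q.ker := f.subgroupComap q.ker
    have hg : Function.Surjective g := by
      rintro ⟨y, hy⟩
      obtain ⟨x, hx⟩ := hf y
      refine ⟨⟨x, ?_⟩, ?_⟩
      · rw [Subgroup.mem_comap, hx]
        exact hy
      · apply Subtype.ext
        exact hx
    have hq2 : IsPGroup 2 q.ker := by
      rintro ⟨σ, hσ⟩
      refine ⟨1, Subtype.ext ?_⟩
      rw [pow_one]
      exact q_ker_sq σ hσ
    have h1 : ((S.mapSurjective hg : Sylow 2 q.ker) : Subgroup q.ker) = ⊤ := by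
      have h2 : IsPGroup 2 (⊤ : Subgroup q.ker) := hq2.to_subgroup _
      exact ((S.mapSurjective hg).3 h2 le_top).symm
    have h2 : (S : Subgroup M).map g = ⊤ := h1
    apply le_antisymm
    · rintro _ ⟨x, hx, rfl⟩
      obtain ⟨y, -, rfl⟩ := hx
      exact y.2
    · intro y hy
      have h3 : (⟨y, hy⟩ : q.ker) ∈ (S : Subgroup M).map g := by rw [h2]; trivial
      obtain ⟨x, hx, hxy⟩ := h3
      exact ⟨x.1, ⟨x, hx, rfl⟩, congrArg Subtype.val hxy⟩
  have hF : Subgroup.normalizer (S0 : Set H) ⊔ M = ⊤ := Sylow.normalizer_sup_eq_top S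
  set L := Subgroup.normalizer (S0 : Set H) with hL
  -- the map onto the symmetric group of degree three
  let g : L →* Equiv.Perm (Fin 3) := q.comp (f.comp L.subtype)
  have hgs : Function.Surjective g := by
    intro τ
    obtain ⟨σ, rfl⟩ := q_surjective τ
    obtain ⟨x, rfl⟩ := hf σ
    have hx : x ∈ L ⊔ M := by rw [hF]; trivial
    obtain ⟨l, hl, m, hm, rfl⟩ := Subgroup.mem_sup_of_normal_right.1 hx
    refine ⟨⟨l, hl⟩, ?_⟩
    change q (f l) = q (f (l * m))
    have h1 : q (f m) = 1 := hm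
    rw [map_mul, map_mul, h1, mul_one]
  refine ⟨S0.map H.subtype, hSp.map _, ?_⟩
  set T : Subgroup G := S0.map H.subtype with hT
  set N := Subgroup.normalizer (T : Set G) with hN
  set C := (Subgroup.centralizer (T : Set G)).subgroupOf N with hC
  have hLN : ∀ l : L, ((l : H) : G) ∈ N := by
    intro l
    have h1 := Subgroup.le_normalizer_map (H := S0) H.subtype
    exact h1 ⟨(l : H), l.2, rfl⟩
  let i : L →* N := (H.subtype.comp L.subtype).codRestrict N hLN
  refine of_ker_le ((QuotientGroup.mk' C).comp i) g hgs ?_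
  intro l hl
  rw [MonoidHom.mem_ker, MonoidHom.comp_apply] at hl
  have h1 := (QuotientGroup.eq_one_iff _).1 hl
  rw [hC, Subgroup.mem_subgroupOf, Subgroup.mem_centralizer_iff] at h1
  rw [MonoidHom.mem_ker]
  change q (f l) = 1
  apply q_of_centralize
  intro τ hτ
  have h2 : τ ∈ S0.map f := by rw [hST]; exact hτ
  obtain ⟨s, hs, rfl⟩ := h2
  have h3 : (s : G) * ((l : H) : G) = ((l : H) : G) * (s : G) := h1 _ ⟨s, hs, rfl⟩
  have h4 : s * (l : H) = (l : H) * s := Subtype.ext h3
  rw [← map_mul, h4, map_mul]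

end Cfsg.Agent.H212.SFour
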